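import Cfsg.Agent.H35.Fi24T.Y5V3.RTab

set_option autoImplicit false
set_option linter.all false
set_option Elab.async false

namespace Cfsg.Agent.H35

theorem y5v3_rchk_0 : allR y5v3_rf 56 6 (0 * 2 ^ 6) = true := by decide +kernel

end Cfsg.Agent.H35
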